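import Cfsg.Agent.Supersolv.Props
import Cfsg.Agent.PGroup.Basic

/-!
Groups all of whose subgroups satisfy the converse of Lagrange's theorem are supersolvable.
-/

set_option autoImplicit false
set_option linter.style.haveILetI false
set_option linter.unusedSectionVars false
set_option linter.deprecated false

open Subgroup
open scoped Pointwise

namespace Cfsg.Agent.Supersolv

universe u

theorem everyOrder_of_equiv {G : Type u} [Group G] {H : Type*} [Group H] (e : G ≃* H)
    (h : Cfsg.HasSubgroupOfEveryOrder G) : Cfsg.HasSubgroupOfEveryOrder H := by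
  intro d hd
  rw [← Nat.card_congr e.toEquiv] at hd
  obtain ⟨L, hL⟩ := h d hd
  exact ⟨L.map e.toMonoidHom, by rw [card_map_of_injective e.injective, hL]⟩

theorem everyOrder_hereditary {G : Type u} [Group G] (L : Subgroup G)
    (h : ∀ H : Subgroup G, Cfsg.HasSubgroupOfEveryOrder H) :
    ∀ H : Subgroup L, Cfsg.HasSubgroupOfEveryOrder H := fun H =>
  everyOrder_of_equiv (H.equivMapOfInjective L.subtype L.subtype_injective).symm
    (h (H.map L.subtype))

theorem clt_sylow_normal_aux : ∀ (n : ℕ) (X : Type u) [Group X] [Finite X],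
    Nat.card X ≤ n → (∀ H : Subgroup X, Cfsg.HasSubgroupOfEveryOrder H) →
    ∀ (p : ℕ) [Fact p.Prime], p ∣ Nat.card X →
      (∀ q : ℕ, q.Prime → q ∣ Nat.card X → q ≤ p) →
      ∀ P : Sylow p X, (P : Subgroup X).Normal := by
  intro n
  induction n with
  | zero => intro X _ _ h; exact absurd h (Nat.not_le_of_gt Nat.card_pos)
  | succ n ih =>
    intro X _ _ hn h p hpF hpd hmax P
    have hp : p.Prime := hpF.out
    have hX1 : Nat.card X ≠ 1 := fun e => hp.not_dvd_one (e ▸ hpd)
    set q := (Nat.card X).minFac with hq
    have hqp : q.Prime := Nat.minFac_prime hX1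
    by_cases hqe : q = p
    · have : IsPGroup p X := by
        refine IsPGroup.of_card (n := (Nat.card X).primeFactorsList.length) ?_
        refine Nat.eq_prime_pow_of_unique_prime_dvd Nat.card_pos.ne' fun {r} hr hrd => ?_
        exact le_antisymm (hmax r hr hrd) (hqe ▸ Nat.minFac_le_of_dvd hr.two_le hrd)
      have hP : (P : Subgroup X) = ⊤ := by
        obtain ⟨i, hi⟩ := this.exists_card_eq
        refine eq_top_of_card_eq _ ?_
        rw [P.card_eq_multiplicity, hi, Nat.factorization_pow_self hp]
      rw [hP]; infer_instance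
    obtain ⟨m, hm⟩ := Nat.minFac_dvd (Nat.card X)
    obtain ⟨H0, hH0⟩ := everyOrder_of_equiv Subgroup.topEquiv (h ⊤) m (hm ▸ dvd_mul_left m _)
    have hidx : H0.index = q := by
      have h1 := H0.card_mul_index
      rw [hH0, hm, mul_comm (Nat.card X).minFac] at h1
      refine Nat.eq_of_mul_eq_mul_left ?_ h1
      exact Nat.pos_of_ne_zero fun e => Nat.card_pos.ne' (by rw [hm, e, mul_zero])
    haveI : H0.Normal := normal_of_index_eq_minFac_card hidx
    have hlt : Nat.card H0 < Nat.card X := by
      rw [← H0.card_mul_index, hidx]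
      exact (Nat.lt_mul_iff_one_lt_right Nat.card_pos).2 hqp.one_lt
    have hpH : p ∣ Nat.card H0 := by
      rw [← H0.card_mul_index, hidx] at hpd
      exact (hp.dvd_mul.1 hpd).resolve_right
        (fun e => hqe ((Nat.prime_dvd_prime_iff_eq hp hqp).1 e).symm)
    let Q : Sylow p H0 := default
    haveI := ih H0 (by omega) (everyOrder_hereditary H0 h) p hpH
      (fun r hr hrd => hmax r hr (hrd.trans (card_subgroup_dvd_card H0))) Q
    haveI : (Q : Subgroup H0).Characteristic := Q.characteristic_of_normal ‹_›
    set Qm := (Q : Subgroup H0).map H0.subtype with hQm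
    haveI : Qm.Normal := ConjAct.normal_of_characteristic_of_normal
    have hQc : Nat.card Qm = p ^ (Nat.card X).factorization p := by
      rw [hQm, Coprime.card_sylow_map]
      congr 1
      conv_rhs => rw [← H0.card_mul_index, hidx, Nat.factorization_mul Nat.card_pos.ne' hqp.ne_zero,
        Finsupp.add_apply, Nat.factorization_eq_zero_of_not_dvd
          (fun e => hqe ((Nat.prime_dvd_prime_iff_eq hp hqp).1 e).symm), add_zero]
    have hPQ : (P : Subgroup X) = Qm := by
      obtain ⟨g, hg⟩ := MulAction.exists_smul_eq X (Sylow.ofCard Qm hQc) P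
      have := congrArg (fun R : Sylow p X => (R : Subgroup X)) hg
      simp only [Sylow.coe_subgroup_smul, Sylow.coe_ofCard] at this
      rw [← this]
      exact Coprime.conj_smul_eq_self_iff.2 (normalizer_eq_top_iff.2 ‹_› ▸ mem_top g)
    rw [hPQ]; infer_instance

theorem clt_sylow_normal {G : Type u} [Group G] [Finite G]
    (h : ∀ H : Subgroup G, Cfsg.HasSubgroupOfEveryOrder H) (p : ℕ) [Fact p.Prime]
    (hdvd : p ∣ Nat.card G) (hmax : ∀ q : ℕ, q.Prime → q ∣ Nat.card G → q ≤ p) (P : Sylow p G) :
    (P : Subgroup G).Normal := clt_sylow_normal_aux _ G le_rfl h p hdvd hmax P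

theorem reach_of_supplement_aux : ∀ (n : ℕ) (X : Type u) [Group X] [Finite X],
    Nat.card X ≤ n → ∀ {p : ℕ} [Fact p.Prime] (P M : Subgroup X), P.Normal → IsPGroup p P →
      Cfsg.IsSupersolvable M → P ⊔ M = ⊤ → ∀ W : Subgroup X, W.Normal → W ≤ P → W ≤ M →
        Reach W := by
  intro n
  induction n with
  | zero => intro X _ _ h; exact absurd h (Nat.not_le_of_gt Nat.card_pos)
  | succ n ih =>
    intro X _ _ hn p hp P M hPn hP hM htop W hWn hWP hWM
    by_cases hW : W = ⊥
    · rw [hW]; exact .bot
    haveI := hPn
    haveI := hWn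
    set Z := (center P).map P.subtype with hZ
    haveI : Z.Normal := ConjAct.normal_of_characteristic_of_normal
    have hA : W ⊓ Z ≠ ⊥ := by
      have h1 := PGroup.inf_center_ne_bot hP (W.subgroupOf P)
        (fun e => hW (disjoint_self.1 ((subgroupOf_eq_bot.1 e).mono_right hWP)))
      intro e
      refine h1 ((map_eq_bot_iff_of_injective _ P.subtype_injective).1 (eq_bot_iff.2 ?_))
      rw [← e]
      refine (map_inf_le _ _ _).trans (le_of_eq ?_)
      rw [map_subgroupOf_eq_of_le hWP]
    set A := W ⊓ Z with hAdef
    have hAM : A ≤ M := inf_le_left.trans hWM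
    obtain ⟨C0, hC0, hC0n, hC0p⟩ := exists_prime_normal_le hM (A.subgroupOf M)
      (fun e => hA (disjoint_self.1 ((subgroupOf_eq_bot.1 e).mono_right hAM)))
    set C := C0.map M.subtype with hC
    have hCA : C ≤ A := (map_mono hC0).trans (map_subgroupOf_eq_of_le hAM).le
    haveI : C.Normal := by
      refine normalizer_eq_top_iff.1 (eq_top_iff.2 (htop.symm.le.trans (sup_le ?_ ?_)))
      · refine le_trans ?_ (Coprime.centralizer_le_normalizer' C)
        intro x hx a ha
        obtain ⟨y, hy, rfl⟩ : a ∈ Z := (hCA ha).2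
        exact (congrArg Subtype.val (mem_center_iff.1 hy ⟨x, hx⟩)).symm
      · intro x hx
        rw [mem_normalizer_iff]
        intro y
        constructor
        · rintro ⟨z, hz, rfl⟩
          exact ⟨⟨x, hx⟩ * z * ⟨x, hx⟩⁻¹, hC0n.conj_mem z hz _, rfl⟩
        · rintro ⟨z, hz, hze⟩
          refine ⟨(⟨x, hx⟩ : M)⁻¹ * z * ⟨x, hx⟩, hC0n.conj_mem' z hz _, ?_⟩
          simp only [Subgroup.coe_subtype] at hze
          simp [hze, mul_assoc]
    have hCp : (Nat.card C).Prime := by rwa [hC, card_map_of_injective M.subtype_injective]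
    have hf := QuotientGroup.mk'_surjective C
    have hlt := card_quotient_prime_lt C hCp
    have hW' := ih (X ⧸ C) (by omega) (p := p) (P.map (QuotientGroup.mk' C))
      (M.map (QuotientGroup.mk' C)) (hPn.map _ hf) (hP.map _)
      (supersolvable_of_surjective hM _ ((QuotientGroup.mk' C).subgroupMap_surjective M))
      (by rw [← Subgroup.map_sup, htop, map_top_of_surjective _ hf])
      (W.map (QuotientGroup.mk' C)) (hWn.map _ hf) (map_mono hWP) (map_mono hWM)
    haveI := isCyclic_of_prime hCp
    have := Reach.comap (f := QuotientGroup.mk' C) hf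
      (by rw [QuotientGroup.ker_mk']; exact reach_of_isCyclic C) hW'
    rwa [comap_map_eq_self (by rw [QuotientGroup.ker_mk']; exact hCA.trans inf_le_left)] at this

theorem supersolvable_of_clt_aux : ∀ (n : ℕ) (X : Type u) [Group X] [Finite X],
    Nat.card X ≤ n → (∀ H : Subgroup X, Cfsg.HasSubgroupOfEveryOrder H) →
      Cfsg.IsSupersolvable X := by
  intro n
  induction n with
  | zero => intro X _ _ h; exact absurd h (Nat.not_le_of_gt Nat.card_pos)
  | succ n ih =>
    intro X _ _ hn h
    rcases subsingleton_or_nontrivial X with hs | hs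
    · exact supersolvable_of_subsingleton
    have hne : (Nat.card X).primeFactors.Nonempty :=
      Nat.nonempty_primeFactors.2 Finite.one_lt_card
    set p := (Nat.card X).primeFactors.max' hne with hp'
    have hpm := Finset.max'_mem _ hne
    rw [← hp', Nat.mem_primeFactors] at hpm
    obtain ⟨hp, hpd, -⟩ := hpm
    haveI : Fact p.Prime := ⟨hp⟩
    let P : Sylow p X := default
    haveI hPn : (P : Subgroup X).Normal := clt_sylow_normal h p hpd (fun q hq hqd =>
      Finset.le_max' _ _ (Nat.mem_primeFactors.2 ⟨hq, hqd, Nat.card_pos.ne'⟩)) P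
    by_cases hPtop : (P : Subgroup X) = ⊤
    · exact supersolvable_of_isPGroup _ X le_rfl
        ((P.2.of_surjective (P : Subgroup X).subtype (fun x => ⟨⟨x, hPtop ▸ mem_top x⟩, rfl⟩)))
    -- a subgroup of index `p`
    obtain ⟨m, hm⟩ := hpd
    obtain ⟨M, hM⟩ := everyOrder_of_equiv Subgroup.topEquiv (h ⊤) m (hm ▸ dvd_mul_left m _)
    have hMidx : M.index = p := by
      have h1 := M.card_mul_index
      rw [hM, hm, mul_comm p] at h1
      refine Nat.eq_of_mul_eq_mul_left ?_ h1
      exact Nat.pos_of_ne_zero fun e => Nat.card_pos.ne' (by rw [hm, e, mul_zero])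
    have hMlt : Nat.card M ≤ n := by
      have : Nat.card M < Nat.card X := by
        rw [← M.card_mul_index, hMidx]
        exact (Nat.lt_mul_iff_one_lt_right Nat.card_pos).2 hp.one_lt
      omega
    have hMs := ih M hMlt (everyOrder_hereditary M h)
    have hPi : ¬ p ∣ (P : Subgroup X).index := P.not_dvd_index'
      Subgroup.index_ne_zero_of_finite
    have htop : (P : Subgroup X) ⊔ M = ⊤ := by
      have h1 : ((P : Subgroup X) ⊔ M).index ∣ p :=
        (index_dvd_of_le le_sup_right).trans (dvd_of_eq hMidx)
      have h2 : ((P : Subgroup X) ⊔ M).index ∣ (P : Subgroup X).index :=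
        index_dvd_of_le le_sup_left
      rcases hp.eq_one_or_self_of_dvd _ h1 with h3 | h3
      · exact index_eq_one.1 h3
      · exact absurd ((dvd_of_eq h3.symm).trans h2) hPi
    set P1 := (P : Subgroup X) ⊓ M with hP1
    have hrel : P1.relIndex (P : Subgroup X) = p := by
      rw [hP1, inf_relIndex_left]
      exact (relIndex_sup_right_of_normal_aux (P : Subgroup X) M htop).symm.trans hMidx
    haveI hP1n : P1.Normal := by
      refine normalizer_eq_top_iff.1 (eq_top_iff.2 (htop.symm.le.trans (sup_le ?_ ?_)))
      · have hle : P1 ≤ (P : Subgroup X) := inf_le_left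
        haveI : Fact p.Prime := ⟨hp⟩
        refine (normal_subgroupOf_iff_le_normalizer hle).1 ?_
        refine normal_of_index_eq_minFac_card ?_
        obtain ⟨i, hi⟩ := P.2.exists_card_eq
        change P1.relIndex (P : Subgroup X) = _
        rw [hrel, hi, Nat.pow_minFac, hp.minFac_eq]
        rintro rfl
        have := hrel ▸ relIndex_dvd_card P1 (P : Subgroup X)
        rw [hi] at this
        exact hp.not_dvd_one (by simpa using this)
      · exact (le_inf le_normalizer_of_normal le_normalizer).trans
          inf_normalizer_le_normalizer_inf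
    have hR1 : Reach P1 := reach_of_supplement_aux _ X le_rfl (p := p) (P : Subgroup X) M hPn P.2
      hMs htop P1 hP1n inf_le_left inf_le_right
    have hlt1 : P1 < (P : Subgroup X) := by
      refine lt_of_le_of_ne inf_le_left fun e => hp.ne_one ?_
      rw [← hrel, e, relIndex_self]
    obtain ⟨g, hgP, hg1⟩ := SetLike.exists_of_lt hlt1
    have hPe : P1 ⊔ zpowers g = (P : Subgroup X) := by
      refine le_antisymm (sup_le inf_le_left (zpowers_le.2 hgP)) ?_
      have h1 := relIndex_mul_relIndex P1 (P1 ⊔ zpowers g) (P : Subgroup X) le_sup_left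
        (sup_le inf_le_left (zpowers_le.2 hgP))
      rw [hrel] at h1
      rcases hp.eq_one_or_self_of_dvd _ (Dvd.intro _ h1) with h2 | h2
      · exact absurd (relIndex_eq_one.1 h2 (mem_sup_right (mem_zpowers g))) hg1
      · rw [h2] at h1
        exact relIndex_eq_one.1 ((Nat.mul_eq_left hp.ne_zero).1 h1)
    have hRP : Reach (P : Subgroup X) := hPe ▸ Reach.step P1 g hR1 (hPe.symm ▸ hPn)
    -- the quotient is a proper subgroup of `X`
    have hcop : (Nat.card (P : Subgroup X)).Coprime (P : Subgroup X).index := P.card_coprime_index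
    obtain ⟨K, hK⟩ := exists_left_complement'_of_coprime hcop
    have hKlt : Nat.card K ≤ n := by
      have h1 := hK.card_mul_card
      have h2 : 1 < Nat.card (P : Subgroup X) := by
        rw [one_lt_card_iff_ne_bot]
        intro e
        exact hp.ne_one (hrel.symm.trans (by rw [e, relIndex_bot_right]))
      have : Nat.card K < Nat.card X :=
        h1 ▸ (Nat.lt_mul_iff_one_lt_right Nat.card_pos).2 h2
      omega
    have hKs := ih K hKlt (everyOrder_hereditary K h)
    refine supersolvable_of_reach hRP (supersolvable_of_equiv hKs hK.QuotientMulEquiv.symm)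
where
  relIndex_sup_right_of_normal_aux {X : Type u} [Group X] [Finite X] (P M : Subgroup X) [P.Normal]
      (htop : P ⊔ M = ⊤) : M.index = M.relIndex P := by
    have h1 := Coprime.coe_sup_of_le_normalizer (A := M) (K := P) le_normalizer_of_normal
    let f : P ⧸ M.subgroupOf P → X ⧸ M := Quotient.map' (fun x => (x : X)) fun a b hab => by
      rw [QuotientGroup.leftRel_apply] at hab ⊢
      simpa [Subgroup.mem_subgroupOf] using hab
    refine (Nat.card_congr (Equiv.ofBijective f ⟨?_, ?_⟩)).symm
    · refine Quotient.ind₂' fun a b hab => Quotient.eq''.2 ?_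
      have := Quotient.eq''.1 hab
      rw [QuotientGroup.leftRel_apply] at this ⊢
      simpa [Subgroup.mem_subgroupOf] using this
    · intro q
      induction q using Quotient.inductionOn' with
      | h x =>
        obtain ⟨y, hy, m, hm, e⟩ := Coprime.exists_mul_of_mem_sup' (A := M) (K := P)
          le_normalizer_of_normal (show x ∈ M ⊔ P by rw [sup_comm, htop]; exact mem_top x)
        refine ⟨Quotient.mk'' ⟨y, hy⟩, Quotient.eq''.2 ?_⟩
        rw [QuotientGroup.leftRel_apply, e, inv_mul_cancel_left]
        exact hm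

theorem supersolvable_of_clt {G : Type u} [Group G] [Finite G]
    (h : ∀ H : Subgroup G, Cfsg.HasSubgroupOfEveryOrder H) : Cfsg.IsSupersolvable G :=
  supersolvable_of_clt_aux _ G le_rfl h

theorem supersolvable_of_comm_aux : ∀ (n : ℕ) (X : Type u) [Group X] [Finite X],
    Nat.card X ≤ n → (∀ a b : X, a * b = b * a) → Cfsg.IsSupersolvable X := by
  intro n
  induction n with
  | zero => intro X _ _ h; exact absurd h (Nat.not_le_of_gt Nat.card_pos)
  | succ n ih =>
    intro X _ _ hn hc
    rcases subsingleton_or_nontrivial X with hs | hs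
    · exact supersolvable_of_subsingleton
    obtain ⟨p, hp, hpd⟩ := Nat.exists_prime_and_dvd (Finite.one_lt_card (α := X)).ne'
    haveI : Fact p.Prime := ⟨hp⟩
    obtain ⟨x, hx⟩ := exists_prime_orderOf_dvd_card' p hpd
    haveI : (zpowers x).Normal := ⟨fun a ha b => by rwa [hc b a, mul_inv_cancel_right]⟩
    have hCp : (Nat.card (zpowers x)).Prime := by rw [Nat.card_zpowers, hx]; exact hp
    have hlt := card_quotient_prime_lt (zpowers x) hCp
    refine supersolvable_of_prime_normal _ hCp (ih _ (by omega) ?_)
    intro a b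
    induction a using QuotientGroup.induction_on with
    | H a =>
      induction b using QuotientGroup.induction_on with
      | H b => exact congrArg (QuotientGroup.mk' (zpowers x)) (hc a b)

/-- Finite abelian groups are supersolvable. -/
theorem supersolvable_of_comm {G : Type u} [Group G] [Finite G] (h : ∀ a b : G, a * b = b * a) :
    Cfsg.IsSupersolvable G := supersolvable_of_comm_aux _ G le_rfl h

end Cfsg.Agent.Supersolv
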