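import Cfsg.Agent.Coprime.Action
import Cfsg.Agent.S0007

/-!
Wielandt's solvability criterion: three solvable subgroups of pairwise coprime indices.
-/

set_option autoImplicit false
set_option linter.style.haveILetI false
set_option linter.unusedSectionVars false

open Subgroup
open scoped Pointwise

namespace Cfsg.Agent.Supersolv

universe u

theorem normalCore_ne_bot_of_coprime {G : Type u} [Group G] [Finite G] {p : ℕ} [Fact p.Prime]
    {H1 H2 M : Subgroup G} (hM : IsPGroup p M) (hMne : M ≠ ⊥)
    (hH1 : H1 ≤ normalizer (M : Set G)) (hcop : H1.index.Coprime H2.index)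
    (hp : ¬ p ∣ H2.index) : ∃ g : G, (MulAut.conj g • H2).normalCore ≠ ⊥ := by
  obtain ⟨T, hT⟩ := hM.exists_le_sylow
  let Q : Sylow p H2 := default
  have hQc : Nat.card ↥((Q : Subgroup H2).map H2.subtype) = p ^ (Nat.card G).factorization p := by
    rw [Coprime.card_sylow_map]
    congr 1
    conv_rhs => rw [← H2.card_mul_index,
      Nat.factorization_mul Nat.card_pos.ne' index_ne_zero_of_finite,
      Finsupp.add_apply, Nat.factorization_eq_zero_of_not_dvd hp, add_zero]
  obtain ⟨g, hg⟩ := MulAction.exists_smul_eq G (Sylow.ofCard _ hQc) T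
  refine ⟨g, fun hbot => hMne (eq_bot_iff.2 (le_trans ?_ hbot.le))⟩
  have hMH : M ≤ MulAut.conj g • H2 := by
    refine hT.trans ?_
    rw [← hg, Sylow.coe_subgroup_smul, Sylow.coe_ofCard]
    exact Coprime.conj_smul_mono (map_subtype_le _) g
  have hidx : (MulAut.conj g • H2).index = H2.index := index_map_equiv H2 (MulAut.conj g)
  intro m hm x
  obtain ⟨y, hy, z, hz, hyz⟩ := (S0007.result (MulAut.conj g • H2) H1
    (by rw [hidx]; exact hcop.symm)).2 x
  have h1 : z * m * z⁻¹ ∈ M := (mem_normalizer_iff.1 (hH1 hz) m).1 hm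
  have h2 := mul_mem (mul_mem hy (hMH h1)) (inv_mem hy)
  rw [hyz]
  simpa [mul_assoc] using h2

theorem isSolvable_of_three_aux : ∀ (n : ℕ) (X : Type u) [Group X] [Finite X],
    Nat.card X ≤ n → ∀ H1 H2 H3 : Subgroup X, Group.IsSolvable H1 → Group.IsSolvable H2 →
      Group.IsSolvable H3 → H1.index.Coprime H2.index → H1.index.Coprime H3.index →
      H2.index.Coprime H3.index → Group.IsSolvable X := by
  intro n
  induction n with
  | zero => intro X _ _ h; exact absurd h (Nat.not_le_of_gt Nat.card_pos)
  | succ n ih =>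
    intro X _ _ hn H1 H2 H3 h1 h2 h3 h12 h13 h23
    by_cases hbot : H1 = ⊥
    · have hH2 : H2 = ⊤ := by
        rw [hbot, index_bot] at h12
        exact index_eq_one.1 (Nat.eq_one_of_dvd_coprimes h12 H2.index_dvd_card dvd_rfl)
      haveI := h2
      exact Group.isSolvable_of_surjective (f := H2.subtype)
        (fun x => ⟨⟨x, hH2 ▸ mem_top x⟩, rfl⟩)
    haveI : Nontrivial H1 := (nontrivial_iff_ne_bot H1).2 hbot
    haveI := h1
    obtain ⟨p, N0, hp, hN0n, hN0p, hN0ne, -⟩ := Coprime.exists_normal_pGroup_of_isSolvable H1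
    haveI : Fact p.Prime := ⟨hp⟩
    have hMne : N0.map H1.subtype ≠ ⊥ := fun e =>
      hN0ne ((map_eq_bot_iff_of_injective _ H1.subtype_injective).1 e)
    have hM : H1 ≤ normalizer (N0.map H1.subtype : Set X) := by
      haveI := hN0n
      have h := le_normalizer_map (H := N0) H1.subtype
      rw [normalizer_eq_top_iff.2 hN0n, ← MonoidHom.range_eq_map, range_subtype] at h
      exact h
    obtain ⟨g, H, hH, hcore⟩ : ∃ (g : X) (H : Subgroup X), Group.IsSolvable H ∧
        (MulAut.conj g • H).normalCore ≠ ⊥ := by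
      by_cases hp2 : p ∣ H2.index
      · have hp3 : ¬ p ∣ H3.index := fun h => hp.not_dvd_one (h23 ▸ Nat.dvd_gcd hp2 h)
        obtain ⟨g, hg⟩ := normalCore_ne_bot_of_coprime (hN0p.map _) hMne hM h13 hp3
        exact ⟨g, H3, h3, hg⟩
      · obtain ⟨g, hg⟩ := normalCore_ne_bot_of_coprime (hN0p.map _) hMne hM h12 hp2
        exact ⟨g, H2, h2, hg⟩
    set N := (MulAut.conj g • H).normalCore with hN
    haveI := hH
    haveI : Group.IsSolvable ↥(MulAut.conj g • H) := Group.isSolvable_of_surjective
      (f := (Subgroup.equivSMul (MulAut.conj g) H).toMonoidHom)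
      (Subgroup.equivSMul (MulAut.conj g) H).surjective
    haveI : Group.IsSolvable N := Coprime.isSolvable_of_le (normalCore_le _) inferInstance
    have hlt : Nat.card (X ⧸ N) ≤ n := by
      have e := card_eq_card_quotient_mul_card_subgroup N
      have e2 : 1 < Nat.card N := (one_lt_card_iff_ne_bot N).2 hcore
      have e3 : 0 < Nat.card (X ⧸ N) := Nat.card_pos
      nlinarith
    let f := QuotientGroup.mk' N
    have hf : Function.Surjective f := QuotientGroup.mk'_surjective N
    have hmap : ∀ K : Subgroup X, Group.IsSolvable K → Group.IsSolvable (K.map f) := by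
      intro K hK
      exact Group.isSolvable_of_surjective (f.subgroupMap_surjective K)
    have := ih (X ⧸ N) hlt (H1.map f) (H2.map f) (H3.map f) (hmap _ h1) (hmap _ h2) (hmap _ h3)
      ((h12.coprime_dvd_left (index_map_dvd H1 hf)).coprime_dvd_right (index_map_dvd H2 hf))
      ((h13.coprime_dvd_left (index_map_dvd H1 hf)).coprime_dvd_right (index_map_dvd H3 hf))
      ((h23.coprime_dvd_left (index_map_dvd H2 hf)).coprime_dvd_right (index_map_dvd H3 hf))
    exact (Group.isSolvable_iff_subgroup_quotient N).2 ⟨inferInstance, this⟩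

/-- **Wielandt**: three solvable subgroups with pairwise coprime indices force solvability. -/
theorem isSolvable_of_three {G : Type u} [Group G] [Finite G] (H1 H2 H3 : Subgroup G)
    (h1 : Group.IsSolvable H1) (h2 : Group.IsSolvable H2) (h3 : Group.IsSolvable H3)
    (h12 : H1.index.Coprime H2.index) (h13 : H1.index.Coprime H3.index)
    (h23 : H2.index.Coprime H3.index) : Group.IsSolvable G :=
  isSolvable_of_three_aux _ G le_rfl H1 H2 H3 h1 h2 h3 h12 h13 h23

end Cfsg.Agent.Supersolv
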