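import Cfsg.Agent.Supersolv.Schmidt
import Cfsg.Agent.Lib.Hall
import Cfsg.Agent.S0007

/-!
Hall complement systems and system normalisers of finite solvable groups.
-/

set_option autoImplicit false
set_option linter.style.haveILetI false
set_option linter.unusedSectionVars false
set_option linter.deprecated false

open Subgroup
open scoped Pointwise

namespace Cfsg.Agent.SysNorm

universe u

variable {G : Type u} [Group G] [Finite G]

theorem card_not_dvd {K : Nat.Primes → Subgroup G} (hK : Cfsg.IsComplementSystem K)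
    (p : Nat.Primes) : ¬ (p : ℕ) ∣ Nat.card (K p) := by
  intro h
  have h2 : (p : ℕ) ^ ((Nat.card G).factorization p + 1) ∣ Nat.card G := by
    have e : (p : ℕ) ^ (Nat.card G).factorization p * Nat.card (K p) = Nat.card G := by
      rw [← hK p, index_mul_card]
    rw [pow_succ]
    exact (mul_dvd_mul_left _ h).trans (dvd_of_eq e)
  have := (p.2.pow_dvd_iff_le_factorization Nat.card_pos.ne').1 h2
  omega

theorem isPiHall {K : Nat.Primes → Subgroup G} (hK : Cfsg.IsComplementSystem K)
    (p : Nat.Primes) : Cfsg.IsPiHall {r : ℕ | r ≠ p} (K p) :=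
  ⟨fun r _ hrd e => card_not_dvd hK p (e ▸ hrd), fun r hr hrp hrd => by
    rw [hK p] at hrd
    exact hrp ((Nat.prime_dvd_prime_iff_eq hr p.2).1 (hr.dvd_of_dvd_pow hrd))⟩

theorem conj_isComplementSystem {K : Nat.Primes → Subgroup G} (hK : Cfsg.IsComplementSystem K)
    (g : G) : Cfsg.IsComplementSystem (fun p => MulAut.conj g • K p) := by
  intro p
  rw [← hK p]
  exact index_map_equiv (K p) (MulAut.conj g)

/-- For normal `N`, `[N : N ∩ H]` divides `[G : H]`. -/
theorem relIndex_dvd_index_of_normal_right (H N : Subgroup G) [N.Normal] :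
    H.relIndex N ∣ H.index := by
  have h1 : H.relIndex (H ⊔ N) ∣ H.index :=
    ⟨(H ⊔ N).index, (relIndex_mul_index le_sup_left).symm⟩
  have e1 : H.relIndex (H ⊔ N) * Nat.card H = Nat.card ↥(H ⊔ N) := by
    have := (H.subgroupOf (H ⊔ N)).index_mul_card
    rwa [Nat.card_congr (subgroupOfEquivOfLe (le_sup_left : H ≤ H ⊔ N)).toEquiv] at this
  have e2 : N.relIndex H * Nat.card N = Nat.card ↥(H ⊔ N) := by
    have := (N.subgroupOf (H ⊔ N)).index_mul_card
    rw [Nat.card_congr (subgroupOfEquivOfLe (le_sup_right : N ≤ H ⊔ N)).toEquiv] at this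
    rwa [← relIndex_sup_right H N]
  have e3 : N.relIndex H * Nat.card ↥(N ⊓ H) = Nat.card H := by
    have := (N.subgroupOf H).index_mul_card
    rwa [← inf_subgroupOf_right,
      Nat.card_congr (subgroupOfEquivOfLe (inf_le_right : N ⊓ H ≤ H)).toEquiv,
      inf_subgroupOf_right] at this
  have e4 : H.relIndex N * Nat.card ↥(N ⊓ H) = Nat.card N := by
    have := (H.subgroupOf N).index_mul_card
    rwa [← inf_subgroupOf_right,
      Nat.card_congr (subgroupOfEquivOfLe (inf_le_right : H ⊓ N ≤ N)).toEquiv,
      inf_subgroupOf_right, inf_comm H N] at this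
  have : H.relIndex (H ⊔ N) = H.relIndex N := by
    refine Nat.eq_of_mul_eq_mul_right (Nat.card_pos (α := H)) ?_
    rw [e1, ← e2, ← e3, ← e4]
    ring
  rwa [← this]

theorem eq_top_of_not_dvd {K : Nat.Primes → Subgroup G} (hK : Cfsg.IsComplementSystem K)
    {p : Nat.Primes} (h : ¬ (p : ℕ) ∣ Nat.card G) : K p = ⊤ := by
  rw [← index_eq_one, hK p, Nat.factorization_eq_zero_of_not_dvd h, pow_zero]

theorem normalizer_index_dvd {K : Nat.Primes → Subgroup G} (hK : Cfsg.IsComplementSystem K)
    (p : Nat.Primes) :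
    (normalizer (K p : Set G)).index ∣ (p : ℕ) ^ (Nat.card G).factorization p :=
  hK p ▸ index_dvd_of_le le_normalizer

/-- Simultaneous conjugacy inside a normal subgroup. -/
theorem simul_conj (N : Subgroup G) [N.Normal] {K L : Nat.Primes → Subgroup G}
    (hK : Cfsg.IsComplementSystem K) (hL : Cfsg.IsComplementSystem L)
    (h : ∀ p, ∃ n ∈ N, MulAut.conj n • K p = L p) :
    ∃ n ∈ N, ∀ p, MulAut.conj n • K p = L p := by
  classical
  let D : Finset Nat.Primes → Subgroup N := fun s =>
    ⨅ p ∈ s, (normalizer (L p : Set G)).subgroupOf N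
  suffices key : ∀ s : Finset Nat.Primes, (∃ n ∈ N, ∀ p ∈ s, MulAut.conj n • K p = L p) ∧
      ∀ r : ℕ, r.Prime → r ∣ (D s).index → ∃ p ∈ s, (p : ℕ) = r by
    obtain ⟨n, hn, hn'⟩ := (key ((Nat.card G).primeFactors.subtype Nat.Prime)).1
    refine ⟨n, hn, fun p => ?_⟩
    by_cases hp : (p : ℕ) ∣ Nat.card G
    · exact hn' p (Finset.mem_subtype.2 (Nat.mem_primeFactors.2 ⟨p.2, hp, Nat.card_pos.ne'⟩))
    · rw [eq_top_of_not_dvd hK hp, eq_top_of_not_dvd hL hp]
      ext; simp
  intro s
  induction s using Finset.induction_on with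
  | empty =>
    refine ⟨⟨1, one_mem _, fun p hp => absurd hp (Finset.notMem_empty p)⟩, fun r hr hrd => ?_⟩
    simp [D] at hrd
    exact absurd hrd hr.ne_one
  | @insert q s hq ih =>
    obtain ⟨⟨n, hn, hns⟩, hD⟩ := ih
    set M := MulAut.conj n • K q with hM
    obtain ⟨m, hm, hmM⟩ := h q
    have hdiv : ∀ {J : Nat.Primes → Subgroup G}, Cfsg.IsComplementSystem J →
        ((normalizer (J q : Set G)).subgroupOf N).index ∣
          (q : ℕ) ^ (Nat.card G).factorization q := fun hJ =>
      (relIndex_dvd_index_of_normal_right _ N).trans (normalizer_index_dvd hJ q)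
    have hMq := hdiv (conj_isComplementSystem hK n)
    have hcop : (D s).index.Coprime ((normalizer (M : Set G)).subgroupOf N).index := by
      refine Nat.coprime_of_dvd fun r hr h1 h2 => ?_
      obtain ⟨p, hp, hpr⟩ := hD r hr h1
      have hrq := (Nat.prime_dvd_prime_iff_eq hr q.2).1 (hr.dvd_of_dvd_pow (h2.trans hMq))
      exact hq (Subtype.ext (hpr.trans hrq) ▸ hp)
    obtain ⟨d, hd, z, hz, hdz⟩ := (S0007.result (D s) _ hcop).2
      ⟨m * n⁻¹, mul_mem hm (inv_mem hn)⟩
    have hdM : MulAut.conj (d : G) • M = L q := by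
      have e : m = (d : G) * (z : G) * n := by
        have := congrArg Subtype.val hdz
        simp only [Subgroup.coe_mul] at this
        rw [← this, inv_mul_cancel_right]
      rw [← hmM, e, ← Coprime.conj_smul_conj_smul, ← Coprime.conj_smul_conj_smul, ← hM,
        Coprime.conj_smul_eq_self_iff.2 (show (z : G) ∈ normalizer (M : Set G) from hz)]
    refine ⟨⟨(d : G) * n, mul_mem d.2 hn, fun p hp => ?_⟩, ?_⟩
    · rw [Finset.mem_insert] at hp
      rcases hp with rfl | hp
      · rw [← Coprime.conj_smul_conj_smul, hdM]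
      · rw [← Coprime.conj_smul_conj_smul, hns p hp]
        have : d ∈ (normalizer (L p : Set G)).subgroupOf N := by
          have := hd
          simp only [D, mem_iInf] at this
          exact this p hp
        exact Coprime.conj_smul_eq_self_iff.2 this
    · intro r hr hrd
      have e : D (insert q s) = (normalizer (L q : Set G)).subgroupOf N ⊓ D s := by
        simp [D, Finset.iInf_insert]
      have hq' := hdiv hL
      have hc2 : (D s).index.Coprime ((normalizer (L q : Set G)).subgroupOf N).index := by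
        refine Nat.coprime_of_dvd fun r hr h1 h2 => ?_
        obtain ⟨p, hp, hpr⟩ := hD r hr h1
        have hrq := (Nat.prime_dvd_prime_iff_eq hr q.2).1 (hr.dvd_of_dvd_pow (h2.trans hq'))
        exact hq (Subtype.ext (hpr.trans hrq) ▸ hp)
      rw [e, (S0007.result _ _ hc2.symm).1] at hrd
      rcases hr.dvd_mul.1 hrd with h1 | h1
      · exact ⟨q, Finset.mem_insert_self _ _,
          ((Nat.prime_dvd_prime_iff_eq hr q.2).1 (hr.dvd_of_dvd_pow (h1.trans hq'))).symm⟩
      · obtain ⟨p, hp, hpr⟩ := hD r hr h1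
        exact ⟨p, Finset.mem_insert_of_mem hp, hpr⟩

theorem systems_conjugate [Group.IsSolvable G] {K L : Nat.Primes → Subgroup G}
    (hK : Cfsg.IsComplementSystem K) (hL : Cfsg.IsComplementSystem L) :
    ∃ g : G, ∀ p, MulAut.conj g • K p = L p := by
  obtain ⟨g, -, hg⟩ := simul_conj ⊤ hK hL fun p => by
    obtain ⟨g, hg⟩ := Hall.conj_isPiHall (isPiHall hK p) (isPiHall hL p)
    exact ⟨g, mem_top g, hg⟩
  exact ⟨g, hg⟩

theorem systemNormalizer_nilpotent {K : Nat.Primes → Subgroup G}
    (hK : Cfsg.IsComplementSystem K) : Group.IsNilpotent (Cfsg.systemNormalizer K) := by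
  set T := Cfsg.systemNormalizer K with hT
  refine Schmidt.nilpotent_of_normal_complements fun q hq => ?_
  set P : Nat.Primes := ⟨q, hq⟩
  have hTN : T ≤ normalizer (K P : Set G) := iInf_le _ P
  haveI hn : ((K P).subgroupOf T).Normal := normal_subgroupOf_of_le_normalizer hTN
  refine ⟨(K P).subgroupOf T, hn, ?_⟩
  have h1 : ((K P).subgroupOf T).index ∣ q ^ (Nat.card G).factorization q := by
    have h2 : (K P).relIndex T ∣ (K P).relIndex (normalizer (K P : Set G)) := by
      rw [← relIndex_subgroupOf hTN]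
      exact relIndex_dvd_index_of_normal ((K P).subgroupOf (normalizer (K P : Set G))) _
    refine h2.trans ?_
    conv_rhs => rw [show q = ((P : Nat.Primes) : ℕ) from rfl, ← hK P,
      ← relIndex_mul_index (le_normalizer (H := K P))]
    exact dvd_mul_right _ _
  obtain ⟨j, hj, hje⟩ := (Nat.dvd_prime_pow hq).1 h1
  have hnd : ¬ q ∣ Nat.card ((K P).subgroupOf T) := by
    intro h
    refine card_not_dvd hK P (h.trans ?_)
    rw [← inf_subgroupOf_right, Nat.card_congr (subgroupOfEquivOfLe inf_le_right).toEquiv]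
    exact card_dvd_of_le inf_le_left
  rw [hje]
  congr 1
  conv_rhs => rw [← ((K P).subgroupOf T).card_mul_index, hje,
    Nat.factorization_mul Nat.card_pos.ne' (pow_ne_zero _ hq.ne_zero), Finsupp.add_apply,
    Nat.factorization_eq_zero_of_not_dvd hnd, zero_add, Nat.factorization_pow_self hq]

theorem map_isComplementSystem {H : Type*} [Group H] [Finite H]
    {K : Nat.Primes → Subgroup G} (hK : Cfsg.IsComplementSystem K) {f : G →* H}
    (hf : Function.Surjective f) : Cfsg.IsComplementSystem (fun p => (K p).map f) := by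
  intro p
  have h1 : ((K p).map f).index ∣ (p : ℕ) ^ (Nat.card G).factorization p :=
    hK p ▸ index_map_dvd (K p) hf
  obtain ⟨j, hj, hje⟩ := (Nat.dvd_prime_pow p.2).1 h1
  have hnd : ¬ (p : ℕ) ∣ Nat.card ((K p).map f) := fun h =>
    card_not_dvd hK p (h.trans (card_map_dvd _ f))
  rw [hje]
  congr 1
  conv_rhs => rw [← ((K p).map f).card_mul_index, hje,
    Nat.factorization_mul Nat.card_pos.ne' (pow_ne_zero _ p.2.ne_zero), Finsupp.add_apply,
    Nat.factorization_eq_zero_of_not_dvd hnd, zero_add, Nat.factorization_pow_self p.2]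

theorem mem_systemNormalizer_iff {K : Nat.Primes → Subgroup G} {g : G} :
    g ∈ Cfsg.systemNormalizer K ↔ ∀ p, MulAut.conj g • K p = K p := by
  rw [Cfsg.systemNormalizer, mem_iInf]
  exact forall_congr' fun p => Coprime.conj_smul_eq_self_iff.symm

theorem systemNormalizer_map [Group.IsSolvable G] {K : Nat.Primes → Subgroup G}
    (hK : Cfsg.IsComplementSystem K) (N : Subgroup G) [N.Normal] :
    Cfsg.systemNormalizer (fun p => (K p).map (QuotientGroup.mk' N)) =
      (Cfsg.systemNormalizer K).map (QuotientGroup.mk' N) := by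
  set f := QuotientGroup.mk' N with hfdef
  refine le_antisymm ?_ ?_
  · intro x hx
    obtain ⟨g, rfl⟩ := QuotientGroup.mk'_surjective N x
    rw [mem_systemNormalizer_iff] at hx
    obtain ⟨n, hn, hnp⟩ := simul_conj N (conj_isComplementSystem hK g) hK fun p => by
      have he : MulAut.conj g • K p ⊔ N = K p ⊔ N := by
        have h := hx p
        rw [← Coprime.map_conj_smul] at h
        have h' := congrArg (Subgroup.comap f) h
        simpa [comap_map_eq, hfdef, QuotientGroup.ker_mk'] using h'
      have hHall : ∀ H : Subgroup G, Cfsg.IsPiHall {r : ℕ | r ≠ p} H → ∀ L : Subgroup G, H ≤ L →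
          Cfsg.IsPiHallOf {r : ℕ | r ≠ p} H L := fun H hH L hHL =>
        ⟨hHL, hH.1, fun r hr hrp hrd =>
          hH.2 r hr hrp (hrd.trans ⟨L.index, (relIndex_mul_index hHL).symm⟩)⟩
      obtain ⟨y, hy, hye⟩ := Hall.conj_isPiHallOf (L := K p ⊔ N)
        (hHall _ (isPiHall (conj_isComplementSystem hK g) p) _ (he ▸ le_sup_left))
        (hHall _ (isPiHall hK p) _ le_sup_left)
      obtain ⟨k, hk, n, hn, rfl⟩ := Coprime.exists_mul_of_mem_sup le_normalizer_of_normal hy
      refine ⟨n, hn, ?_⟩
      calc MulAut.conj n • (MulAut.conj g • K p)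
          = MulAut.conj k⁻¹ • (MulAut.conj (k * n) • (MulAut.conj g • K p)) := by
            conv_rhs => rw [Coprime.conj_smul_conj_smul, inv_mul_cancel_left]
        _ = K p := by rw [hye, Coprime.conj_smul_eq_of_mem (inv_mem hk)]
    refine ⟨n * g, mem_systemNormalizer_iff.2 fun p => ?_, ?_⟩
    · rw [← Coprime.conj_smul_conj_smul]; exact hnp p
    · rw [map_mul, (QuotientGroup.eq_one_iff n).2 hn |> (fun h => (h : f n = 1)), one_mul]
  · rintro x ⟨g, hg, rfl⟩
    rw [SetLike.mem_coe, mem_systemNormalizer_iff] at hg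
    rw [mem_systemNormalizer_iff]
    intro p
    rw [← Coprime.map_conj_smul, hg p]

theorem systemNormalizer_ne_bot_aux : ∀ (n : ℕ) (X : Type u) [Group X] [Finite X]
    [Group.IsSolvable X], Nat.card X ≤ n → Nontrivial X → ∀ K : Nat.Primes → Subgroup X,
      Cfsg.IsComplementSystem K → Cfsg.systemNormalizer K ≠ ⊥ := by
  intro n
  induction n with
  | zero => intro X _ _ _ h; exact absurd h (Nat.not_le_of_gt Nat.card_pos)
  | succ n ih =>
    intro X _ _ _ hn hX K hK hbot
    obtain ⟨N, hNn, hNne, -, hNc, -⟩ := MinNormal.exists_elementary_abelian (G := X)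
    haveI := hNn
    by_cases hNtop : N = ⊤
    · have htop : Cfsg.systemNormalizer K = ⊤ := by
        rw [eq_top_iff]
        intro g _
        rw [mem_systemNormalizer_iff]
        intro p
        refine Coprime.conj_smul_eq_self_iff.2 ?_
        have : (K p).Normal := ⟨fun x hx y => by
          have h : y * x = x * y := congrArg Subtype.val (hNc.is_comm.comm
            ⟨y, hNtop ▸ mem_top y⟩ ⟨x, hNtop ▸ mem_top x⟩)
          rwa [h, mul_inv_cancel_right]⟩
        exact normalizer_eq_top_iff.2 this ▸ mem_top g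
      exact top_ne_bot (htop.symm.trans hbot)
    haveI : Nontrivial (X ⧸ N) := (one_lt_index_of_ne_top hNtop |> fun h => by
      rw [index_eq_card] at h
      exact Finite.one_lt_card_iff_nontrivial.1 h)
    have hlt : Nat.card (X ⧸ N) ≤ n := by
      have e := card_eq_card_quotient_mul_card_subgroup N
      have e2 : 1 < Nat.card N := (one_lt_card_iff_ne_bot N).2 hNne
      have e3 : 0 < Nat.card (X ⧸ N) := Nat.card_pos
      nlinarith
    refine ih (X ⧸ N) hlt inferInstance _
      (map_isComplementSystem hK (QuotientGroup.mk'_surjective N)) ?_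
    rw [systemNormalizer_map hK N, hbot, Subgroup.map_bot]

theorem normalClosure_systemNormalizer [Group.IsSolvable G] {K : Nat.Primes → Subgroup G}
    (hK : Cfsg.IsComplementSystem K) :
    normalClosure ((Cfsg.systemNormalizer K : Subgroup G) : Set G) = ⊤ := by
  by_contra h
  set C := normalClosure ((Cfsg.systemNormalizer K : Subgroup G) : Set G) with hC
  haveI : Nontrivial (G ⧸ C) := (one_lt_index_of_ne_top h |> fun h => by
      rw [index_eq_card] at h
      exact Finite.one_lt_card_iff_nontrivial.1 h)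
  refine systemNormalizer_ne_bot_aux _ (G ⧸ C) le_rfl inferInstance _
    (map_isComplementSystem hK (QuotientGroup.mk'_surjective C)) ?_
  rw [systemNormalizer_map hK C, Subgroup.map_eq_bot_iff, QuotientGroup.ker_mk']
  exact le_normalClosure

end Cfsg.Agent.SysNorm
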